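import Cfsg.Agent.Lib.Helper80.AS.Defs

set_option autoImplicit false

namespace Cfsg.Agent.Lib.Helper80.C6

open Cfsg Cfsg.Geo
open Cfsg.Agent.Lib.Helper80.AS
open Cfsg.Agent.Lib.Helper77.Asch (NormBy MinOver)
open scoped MatrixGroups Matrix Kronecker

variable {ι : Type} [Fintype ι] [DecidableEq ι] {F : Type*} [Field F]

/-- conjugation by an element normalising `R` (together with its inverse), as an automorphism of `R` -/
def charpConj {G : Type*} [Group G] (R : Subgroup G) (h : G) (h1 : ∀ x ∈ R, h * x * h⁻¹ ∈ R)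
    (h2 : ∀ x ∈ R, h⁻¹ * x * h ∈ R) : R ≃* R where
  toFun x := ⟨h * x * h⁻¹, h1 x x.2⟩
  invFun x := ⟨h⁻¹ * x * h, h2 x x.2⟩
  left_inv x := Subtype.ext (by simp [mul_assoc])
  right_inv x := Subtype.ext (by simp [mul_assoc])
  map_mul' x y := Subtype.ext (by simp [mul_assoc])

theorem charp_central (z : GL ι F) (hz : z ∈ scalars ι F) (g : GL ι F) : g * z = z * g := by
  obtain ⟨c, hc⟩ := (mem_scalars_iff z).1 hz
  apply Units.ext
  rw [Units.val_mul, Units.val_mul, hc, Matrix.mul_smul, Matrix.smul_mul, mul_one, one_mul]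

theorem charp_mem_scalars [Nonempty ι] (g : GL ι F) (c : F)
    (h : (g : Matrix ι ι F) = c • (1 : Matrix ι ι F)) : g ∈ scalars ι F := by
  have hc : c ≠ 0 := by
    rintro rfl
    rw [zero_smul] at h
    exact Units.ne_zero _ h
  rw [mem_scalars_iff]
  exact ⟨Units.mk0 c hc, h⟩

/-- CHARP (port of Helper77/AschG/CHAR.lean). -/
theorem char_abelian_cyclic_i [Finite F] [Nonempty ι] (H N R : Subgroup (GL ι F))
    (hm : MinOver H (scalars ι F) N) (hN : ActsAbsolutelyIrreducibly (matrixSet N))
    (hsup : R ⊔ scalars ι F = N) (hnorm : NormBy H R)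
    (A : Subgroup R) (hA : A.Characteristic) (hc : IsMulCommutative A) : IsCyclic A := by
  have hZN : scalars ι F ≤ N := hm.lt.le
  have hRN : R ≤ N := hsup ▸ le_sup_left
  have hscal : ∀ x : GL ι F, (∀ y ∈ N, y * x = x * y) → x ∈ scalars ι F := by
    intro x hx
    obtain ⟨c, hc⟩ := hN.2 (x : Matrix ι ι F) (by
      rintro s ⟨g, hg, rfl⟩
      have := congrArg Units.val (hx g hg)
      simpa using this.symm)
    exact charp_mem_scalars x c hc
  set A' : Subgroup (GL ι F) := A.map R.subtype with hA'
  have hA'R : A' ≤ R := by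
    rintro _ ⟨a, _, rfl⟩
    exact a.2
  have hA'norm : NormBy H A' := by
    rintro h hh _ ⟨a, ha, rfl⟩
    have h2 : ∀ x ∈ R, h⁻¹ * x * h ∈ R := by
      intro x hx
      have := hnorm h⁻¹ (H.inv_mem hh) x hx
      rwa [inv_inv] at this
    have h3 := (Subgroup.characteristic_iff_le_comap.1 hA) (charpConj R h (hnorm h hh) h2) ha
    exact ⟨_, h3, rfl⟩
  have hsupnorm : NormBy H (A' ⊔ scalars ι F) := by
    intro h hh x hx
    have h1 : (A' ⊔ scalars ι F).map (MulAut.conj h).toMonoidHom ≤ A' ⊔ scalars ι F := by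
      rw [Subgroup.map_sup]
      apply sup_le
      · rintro _ ⟨r, hr, rfl⟩
        exact (le_sup_left : A' ≤ _) (hA'norm h hh r hr)
      · rintro _ ⟨z, hz, rfl⟩
        apply (le_sup_right : scalars ι F ≤ A' ⊔ scalars ι F)
        have : (MulAut.conj h).toMonoidHom z = z := by
          simp only [MulEquiv.coe_toMonoidHom, MulAut.conj_apply]
          rw [charp_central z hz h, mul_assoc, mul_inv_cancel, mul_one]
        rw [this]
        exact hz
    exact h1 ⟨x, hx, rfl⟩
  have hA'comm : ∀ a ∈ A', ∀ b ∈ A', a * b = b * a := by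
    rintro _ ⟨a, ha, rfl⟩ _ ⟨b, hb, rfl⟩
    have := hc.is_comm.comm ⟨a, ha⟩ ⟨b, hb⟩
    exact congrArg (fun t : A => ((t : R) : GL ι F)) this
  rcases hm.min (A' ⊔ scalars ι F) le_sup_right (sup_le (hA'R.trans hRN) hZN) hsupnorm
    with h | h
  · have hA'Z : A' ≤ scalars ι F := le_sup_left.trans h.le
    have hcyc : IsCyclic ↥(scalars ι F) :=
      isCyclic_of_surjective
        (Units.map (Matrix.scalar ι : F →+* Matrix ι ι F).toMonoidHom).rangeRestrict
        (MonoidHom.rangeRestrict_surjective _)
    let f : ↥A →* ↥(scalars ι F) :=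
      { toFun := fun a => ⟨((a : R) : GL ι F), hA'Z ⟨a, a.2, rfl⟩⟩
        map_one' := rfl
        map_mul' := fun a b => rfl }
    apply isCyclic_of_injective f
    intro a b hab
    have := congrArg Subtype.val hab
    exact Subtype.ext (Subtype.ext this)
  · exfalso
    have step1 : ∀ a ∈ A', ∀ x ∈ N, x * a = a * x := by
      intro a ha
      have hle : A' ⊔ scalars ι F ≤ Subgroup.centralizer {a} := by
        apply sup_le
        · intro b hb
          rw [Subgroup.mem_centralizer_singleton_iff]
          exact hA'comm b hb a ha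
        · intro z hz
          rw [Subgroup.mem_centralizer_singleton_iff]
          exact (charp_central z hz a).symm
      intro x hx
      rw [← h] at hx
      exact Subgroup.mem_centralizer_singleton_iff.1 (hle hx)
    have step2 : ∀ x ∈ N, ∀ y ∈ N, y * x = x * y := by
      intro x hx
      have hle : A' ⊔ scalars ι F ≤ Subgroup.centralizer {x} := by
        apply sup_le
        · intro b hb
          rw [Subgroup.mem_centralizer_singleton_iff]
          exact (step1 b hb x hx).symm
        · intro z hz
          rw [Subgroup.mem_centralizer_singleton_iff]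
          exact (charp_central z hz x).symm
      intro y hy
      rw [← h] at hy
      exact Subgroup.mem_centralizer_singleton_iff.1 (hle hy)
    have hNZ : N ≤ scalars ι F := fun x hx => hscal x (step2 x hx)
    exact absurd hNZ hm.lt.not_ge

end Cfsg.Agent.Lib.Helper80.C6
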